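import Cfsg.Agent.H4.Coset.Plus
import Cfsg.Agent.H4.Coset.Minus
import Cfsg.Agent.H4.FrobLift

/-!
Involutory graph-field automorphisms of `PΩ⁺_{2m}(q)`, `m ≥ 5`.
-/

set_option autoImplicit false

namespace Cfsg.Agent.H4

open QuadraticMap hiding sq
open Module
open scoped Matrix
open Cfsg.Agent.H5 (orth refl dick spin sqc orth_map orth_ext)

variable {F : Type*} [Field F] [Fintype F]

theorem exists_frob_generator :
    ∃ σ₀ : F ≃+* F, ∀ τ : F ≃+* F, ∃ i < orderOf σ₀, σ₀ ^ i = τ := by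
  obtain ⟨p, _, n, hF⟩ := FiniteField.card' F
  haveI := Fact.mk hF.1
  obtain ⟨σ₀, ho, -, -⟩ := exists_frob (p := p) n.2 hF.2
  haveI : Finite (F ≃+* F) := Finite.of_injective _ DFunLike.coe_injective
  refine ⟨σ₀, fun τ => ?_⟩
  have htop : Subgroup.zpowers σ₀ = ⊤ :=
    Subgroup.eq_top_of_card_eq _ (by rw [Nat.card_zpowers, ho, card_fieldAut (p := p) n.2 hF.2])
  have h : τ ∈ Submonoid.powers σ₀ := mem_powers_iff_mem_zpowers.2 (by rw [htop]; trivial)
  obtain ⟨i, rfl⟩ := h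
  exact ⟨i % orderOf σ₀, Nat.mod_lt _ (orderOf_pos σ₀), pow_mod_orderOf σ₀ i⟩

theorem fieldAut_comm (σ τ : F ≃+* F) : σ * τ = τ * σ := by
  obtain ⟨σ₀, h⟩ := exists_frob_generator (F := F)
  obtain ⟨i, -, rfl⟩ := h σ
  obtain ⟨j, -, rfl⟩ := h τ
  rw [← pow_add, ← pow_add, add_comm]

theorem fieldAut_involution_unique {σ τ : F ≃+* F} (hσ : orderOf σ = 2) (hτ : orderOf τ = 2) :
    σ = τ := by
  obtain ⟨σ₀, h⟩ := exists_frob_generator (F := F)
  have key : ∀ i, i < orderOf σ₀ → orderOf (σ₀ ^ i) = 2 → 2 * i = orderOf σ₀ := fun i hi ho => by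
    have h1 : σ₀ ^ (i * 2) = 1 := by rw [pow_mul, ← ho, pow_orderOf_eq_one]
    obtain ⟨c, hc⟩ := orderOf_dvd_of_pow_eq_one h1
    rcases Nat.eq_zero_or_pos i with rfl | hpos
    · rw [pow_zero, orderOf_one] at ho; omega
    have hc1 : c = 1 := by
      rcases c with _ | _ | c
      · omega
      · rfl
      · exfalso; nlinarith
    rw [hc1, mul_one] at hc
    omega
  obtain ⟨i, hi, rfl⟩ := h σ
  obtain ⟨j, hj, rfl⟩ := h τ
  rw [show i = j by have := key i hi hσ; have := key j hj hτ; omega]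

theorem sqc_pow {a : F} (ha : a ≠ 0) (n : ℕ) : sqc (a ^ n) = sqc a ^ n := by
  induction n with
  | zero => rw [pow_zero, pow_zero, H5.sqc_one]
  | succ n ih => rw [pow_succ, pow_succ, H5.sqc_mul (pow_ne_zero n ha) ha, ih]

/-- The square root in a quadratic extension of a non-square is a square exactly for `q ≡ 3 mod 4`. -/
theorem isSquare_sqrt_iff {K : Type*} [Field K] [Fintype K] {e : K →+* F}
    (hcard : Fintype.card F = Fintype.card K ^ 2) (h2 : (2 : F) ≠ 0) {c : K} (hc : ¬ IsSquare c)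
    {t : F} (ht : t * t = e c) : IsSquare t ↔ Fintype.card K % 4 = 3 := by
  have h2K : (2 : K) ≠ 0 := two_ne_zero_of_embedding (e := e) h2
  have hcF : ringChar F ≠ 2 := fun h => h2 (by haveI := ringChar.of_eq h; exact CharTwo.two_eq_zero)
  have hcK : ringChar K ≠ 2 := fun h => h2K (by haveI := ringChar.of_eq h; exact CharTwo.two_eq_zero)
  have hc0 : c ≠ 0 := fun h => hc (h ▸ IsSquare.zero)
  have ht0 : t ≠ 0 := fun h => (map_ne_zero e).2 hc0 (by rw [← ht, h, mul_zero])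
  obtain ⟨i, hi⟩ : Odd (Fintype.card K) := Nat.odd_iff.2 (FiniteField.odd_card_of_char_ne_two hcK)
  have hF2 : Fintype.card F / 2 = 2 * (i * (i + 1)) := by
    rw [hcard, hi, show (2 * i + 1) ^ 2 = 2 * (2 * (i * (i + 1))) + 1 by ring]
    omega
  have hci : c ^ i = -1 := by
    rcases FiniteField.pow_dichotomy hcK hc0 with h | h
    · exact absurd ((FiniteField.isSquare_iff hcK hc0).2 h) hc
    · rwa [show Fintype.card K / 2 = i by omega] at h
  rw [FiniteField.isSquare_iff hcF ht0, hF2, pow_mul, sq, ht, pow_mul, ← map_pow, hci, map_neg, map_one,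
    neg_one_pow_eq_one_iff_even (fun h => h2 (by linear_combination -h)), Nat.even_add_one, hi,
    Nat.not_even_iff_odd, Nat.odd_iff]
  omega

theorem exists_norm_two {K : Type*} [Field K] {e : K →+* F} {σ : F ≃+* F}
    (he : ∀ y, σ y = y ↔ y ∈ e.range) (hσ : orderOf σ = 2) {c : K} (hc : c ≠ 0) :
    ∃ μ : F, μ * σ μ = e c := by
  haveI : Finite (F ≃+* F) := Finite.of_injective _ DFunLike.coe_injective
  obtain ⟨y, hy⟩ := H23.Descent.exists_unitNorm_eq σ (isOfFinOrder_of_finite σ)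
    (Units.mk0 (e c) ((map_ne_zero e).2 hc)) ((he _).2 ⟨c, rfl⟩)
  refine ⟨y, ?_⟩
  have h := congrArg Units.val hy
  simpa [H23.Descent.unitNorm, hσ, Finset.prod_range_succ] using h

theorem map_inf_centralizer {X Y : Type*} [Group X] [Group Y] (E : X ≃* Y) (D : Subgroup X) (x : X) :
    (D ⊓ Subgroup.centralizer {x}).map E.toMonoidHom =
      D.map E.toMonoidHom ⊓ Subgroup.centralizer {E x} := by
  rw [Subgroup.map_inf _ _ _ E.injective]
  congr 1
  ext y
  simp only [Subgroup.mem_map, MulEquiv.coe_toMonoidHom, Subgroup.mem_centralizer_iff,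
    Set.mem_singleton_iff, forall_eq]
  constructor
  · rintro ⟨z, hz, rfl⟩
    rw [← map_mul, hz, map_mul]
  · intro hy
    refine ⟨E.symm y, E.injective ?_, E.apply_symm_apply y⟩
    rw [map_mul, map_mul, E.apply_symm_apply, hy]

variable {k : ℕ}

/-- An involutory graph-field automorphism is conjugate to the standard one. -/
theorem exists_graph_std (hk : 4 ≤ k) {x : MulAut (Cfsg.POmega F (Cfsg.quadFormPlus (k + 1) F))}
    (hx : Cfsg.IsGraphFieldAutClassPOmegaPlus (k + 1) x) {r : ℕ} (hr : r.Prime) (hxr : orderOf x = r) :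
    r = 2 ∧ ∃ (α : MulAut (Cfsg.POmega F (Cfsg.quadFormPlus (k + 1) F))) (σ : F ≃+* F),
      orderOf σ = 2 ∧
      α * x * α⁻¹ = indHom (qPlus (k + 1) F) (coe_qPlus _) (lastSwap F k * plusPhi k σ) := by
  obtain ⟨-, -, -, -, -, hg⟩ := exists_plus_twist hk hr hxr (Or.inr hx)
  obtain ⟨α, σ, L, hσ, hL, hα⟩ := hg hx
  have hpow : indHom (qPlus (k + 1) F) (coe_qPlus _) (L.1 * plusPhi k σ) ^ r = 1 := by
    rw [← hα, ← MulAut.conj_apply, ← map_pow, ← hxr, pow_orderOf_eq_one, map_one]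
  obtain ⟨β, -, ⟨hp, -⟩ | ⟨-, hr2, he⟩⟩ := plus_lang hk hr hσ L hpow
  · exact absurd hp hL
  refine ⟨hr2, β⁻¹ * α, σ, hσ.trans hr2, ?_⟩
  rw [show β⁻¹ * α * x * (β⁻¹ * α)⁻¹ = β⁻¹ * (α * x * α⁻¹) * β by group, hα, he]
  group

/-- Every automorphism is an inner-diagonal one times one centralising the standard graph-field
automorphism. -/
theorem exists_mul_commute (hk : 4 ≤ k) (σ : F ≃+* F)
    (γ : MulAut (Cfsg.POmega F (Cfsg.quadFormPlus (k + 1) F))) :
    ∃ d ∈ Cfsg.inndiagPOmegaPlus (k + 1) F, ∃ c,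
      Commute c (indHom (qPlus (k + 1) F) (coe_qPlus _) (lastSwap F k * plusPhi k σ)) ∧ γ = d * c := by
  haveI : Finite (Fin (k + 1) ⊕ Fin (k + 1) → F) := Pi.finite
  have hh := plusHyp (F := F) hk
  have hE := evenForm_qPlus (F := F) (m := k + 1) (by omega)
  haveI := hE.nontrivial
  obtain ⟨h, rfl⟩ := indHom_surjective (qPlus (k + 1) F) (coe_qPlus _) hh γ
  set τ := simSigma h
  have hJl : lastSwap F k ∈ linSim (qPlus (k + 1) F) := orthToSim_mem _ _
  have hl : h * (plusPhi k τ)⁻¹ ∈ linSim (qPlus (k + 1) F) := fun t v => by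
    have h1 : simSigma (h * (plusPhi k τ)⁻¹) = 1 := by
      have h2 := simSigma_mul (h * (plusPhi k τ)⁻¹) (plusPhi k τ)
      rw [inv_mul_cancel_right, simSigma_plusPhi] at h2
      exact mul_eq_right.1 h2.symm
    have h3 := (isSemiSim (h * (plusPhi k τ)⁻¹)).map_smul t v
    rwa [h1, simEquiv_apply, simEquiv_apply] at h3
  have hc : Commute (plusPhi k τ) (lastSwap F k * plusPhi k σ) :=
    (lastSwap_commute τ).symm.mul_right (plusPhi_commute (fieldAut_comm τ σ))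
  have hcJ : Commute (lastSwap F k) (lastSwap F k * plusPhi k σ) :=
    (Commute.refl _).mul_right (lastSwap_commute σ)
  rw [inndiag_plus_eq hk]
  by_cases hp : IsProper (k + 1) (⟨_, hl⟩ : linSim (qPlus (k + 1) F))
  · exact ⟨_, ⟨_, (mem_properSim hE (g := ⟨_, hl⟩)).2 hp, rfl⟩, _, hc.map _,
      by rw [← map_mul, inv_mul_cancel_right]⟩
  · refine ⟨_, ⟨h * (plusPhi k τ)⁻¹ * (lastSwap F k)⁻¹, ?_, rfl⟩, _, (hcJ.mul_left hc).map _,
      by rw [← map_mul, ← mul_assoc, inv_mul_cancel_right, inv_mul_cancel_right]⟩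
    refine (mem_properSim hE (g := ⟨_, hl⟩ * (⟨lastSwap F k, hJl⟩)⁻¹)).2
      ((isProper_mul_iff hE _ _).2 (iff_of_false hp fun h' => ?_))
    exact lastSwap_not_proper (by omega) hJl ((mem_properSim hE).1
      (by simpa using inv_mem ((mem_properSim hE).2 h')))

/-- The assertions about involutory graph-field automorphisms. -/
theorem plus_graphField {p f : ℕ} [Fact p.Prime] (hF : Fintype.card F = p ^ f) (hf : 1 ≤ f) (hk : 4 ≤ k)
    {x : MulAut (Cfsg.POmega F (Cfsg.quadFormPlus (k + 1) F))}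
    (hx : Cfsg.IsGraphFieldAutClassPOmegaPlus (k + 1) x) (hx2 : orderOf x = 2)
    (F₀ : Type*) [Field F₀] [Fintype F₀] (hF₀ : Fintype.card F₀ = p ^ (f / 2)) :
    Even f ∧
    (∀ y : MulAut (Cfsg.POmega F (Cfsg.quadFormPlus (k + 1) F)),
      Cfsg.IsGraphFieldAutClassPOmegaPlus (k + 1) y → orderOf y = 2 →
        Cfsg.IsConjUnder (Cfsg.inndiagPOmegaPlus (k + 1) F) x y) ∧
    (∃ a₀ b₀ : F₀, (∀ z₁ z₂ : F₀, z₁ ^ 2 + a₀ * z₁ * z₂ + b₀ * z₂ ^ 2 = 0 → z₁ = 0 ∧ z₂ = 0) ∧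
      Nonempty (↥(Cfsg.inndiagPOmegaPlus (k + 1) F ⊓ Subgroup.centralizer {x}) ≃*
        ↥(Cfsg.inndiagPOmegaMinus k F₀ a₀ b₀))) ∧
    (p = 2 → Cfsg.splitClassCount (Cfsg.inndiagPOmegaPlus (k + 1) F)
      (Cfsg.Inn (Cfsg.POmega F (Cfsg.quadFormPlus (k + 1) F))) x = 1) ∧
    ((p ≠ 2 ∧ Odd (k + 1) ∧ p ^ (f / 2) % 4 = 1) → Cfsg.splitClassCount (Cfsg.inndiagPOmegaPlus (k + 1) F)
      (Cfsg.Inn (Cfsg.POmega F (Cfsg.quadFormPlus (k + 1) F))) x = 4) ∧
    ((p ≠ 2 ∧ ¬ (Odd (k + 1) ∧ p ^ (f / 2) % 4 = 1)) → Cfsg.splitClassCount (Cfsg.inndiagPOmegaPlus (k + 1) F)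
      (Cfsg.Inn (Cfsg.POmega F (Cfsg.quadFormPlus (k + 1) F))) x = 2) := by
  classical
  haveI : Finite (Fin (k + 1) ⊕ Fin (k + 1) → F) := Pi.finite
  haveI : Finite ((Fin k ⊕ Fin k) ⊕ Fin 2 → F) := Pi.finite
  obtain ⟨-, α, σ, hσ, hα⟩ := exists_graph_std hk hx Nat.prime_two hx2
  obtain ⟨hdiv, e, he, hcard⟩ := exists_embedding_of_card hF σ hσ Nat.prime_two F₀ hF₀
  haveI := inndiag_plus_normal (F := F) hk
  refine ⟨(even_iff_two_dvd.2 hdiv), fun y hy hy2 => ?_, ?_⟩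
  · obtain ⟨-, α', σ', hσ', hα'⟩ := exists_graph_std hk hy Nat.prime_two hy2
    obtain rfl := fieldAut_involution_unique hσ hσ'
    obtain ⟨d, hd, c, hc, hdc⟩ := exists_mul_commute hk σ (α * α'⁻¹)
    rw [← isConjUnder_map_iff (a := α), hα]
    refine ⟨d, hd, ?_⟩
    rw [show α * y * α⁻¹ = α * α'⁻¹ * (α' * y * α'⁻¹) * (α * α'⁻¹)⁻¹ by group, hα', hdc]
    rw [show d * c * indHom (qPlus (k + 1) F) (coe_qPlus _) (lastSwap F k * plusPhi k σ) * (d * c)⁻¹ =
      d * (c * indHom (qPlus (k + 1) F) (coe_qPlus _) (lastSwap F k * plusPhi k σ) * c⁻¹) * d⁻¹ by group,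
      hc.eq, mul_inv_cancel_right]
  obtain ⟨ω, a₀, b₀, hω, hσω, ha, hb, hab₀⟩ := exists_twist_data he hσ
  obtain ⟨j, hj, hjσ⟩ := exists_untwist (k := k) hω hσω ha hb
  have hh := plusHyp (F := F) hk
  have hEP := evenForm_qPlus (F := F) (m := k + 1) (by omega)
  have hd₀ : (e a₀) ^ 2 - 4 * e b₀ ≠ 0 := by
    rw [← map_pow, ← map_ofNat e 4, ← map_mul, ← map_sub]
    exact (map_ne_zero e).2 (disc_ne_zero hab₀)
  have hhM : AutHyp (qMinus k F (e a₀) (e b₀)) := by
    have hr : finrank F ((Fin k ⊕ Fin k) ⊕ Fin 2 → F) = 2 * (k + 1) := by simp; ring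
    exact ⟨⟨qMinus_nondegenerate hd₀ k, by omega, fun _ => ⟨k + 1, by omega⟩⟩, fun h => by omega⟩
  have hEM := evenForm_qMinus (F := F) (m := k) (by omega) hd₀
  have hEK := evenForm_qMinus (F := F₀) (m := k) (by omega) (disc_ne_zero hab₀)
  haveI := hEK.nontrivial
  have hhK := autHyp_qMinus hab₀ (m := k) (by omega)
  have hQK := qMinus_base e k a₀ b₀
  have hσQ : ∀ v, qMinus k F (e a₀) (e b₀) (coordSigma _ σ v) = σ (qMinus k F (e a₀) (e b₀) v) := fun v => by
    have e1 : σ (e a₀) = e a₀ := (he _).2 ⟨a₀, rfl⟩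
    have e2 : σ (e b₀) = e b₀ := (he _).2 ⟨b₀, rfl⟩
    simp [coe_qMinus, Cfsg.quadFormMinus, coordSigma_apply, map_sum, e1, e2]
  obtain ⟨ψ, hψ⟩ := exists_pomega_iso j hj (coe_qPlus (k + 1)) (coe_qMinus k (e a₀) (e b₀))
  set E := MulAut.congr ψ
  have hTr : simTransport j hj (lastSwap F k * plusPhi k σ) = stdSigma _ hσQ :=
    Subtype.ext (Equiv.ext fun w => by
      obtain ⟨v, rfl⟩ := j.surjective w
      rw [simTransport_apply, stdSigma_apply, ← hjσ]
      rfl)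
  have hET : E (α * x * α⁻¹) = indHom (qMinus k F (e a₀) (e b₀)) (coe_qMinus k _ _) (stdSigma _ hσQ) := by
    rw [hα, hψ, hTr]
  have hED : (Cfsg.inndiagPOmegaPlus (k + 1) F).map E.toMonoidHom =
      properImage (coe_qMinus k (e a₀) (e b₀)) hEM := by
    rw [inndiag_plus_eq hk, properImage, properImage, ← map_properSim_transport j hj hEP hEM,
      Subgroup.map_map, Subgroup.map_map]
    congr 1
    exact MonoidHom.ext fun g => hψ g
  have hle : Cfsg.Inn (Cfsg.POmega F (Cfsg.quadFormPlus (k + 1) F)) ≤ Cfsg.inndiagPOmegaPlus (k + 1) F := by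
    rw [inndiag_plus_eq hk]; exact inn_le_properImage _ hh _
  have hcount : Cfsg.splitClassCount (Cfsg.inndiagPOmegaPlus (k + 1) F)
      (Cfsg.Inn (Cfsg.POmega F (Cfsg.quadFormPlus (k + 1) F))) x =
      Cfsg.splitClassCount (properImage (coe_qMinus k (e a₀) (e b₀)) hEM)
        (Cfsg.Inn (Cfsg.POmega F (Cfsg.quadFormMinus k F (e a₀) (e b₀))))
        (indHom _ (coe_qMinus k _ _) (stdSigma _ hσQ)) := by
    rw [← splitClassCount_conj hle α x, ← splitClassCount_congr E (α * x * α⁻¹), hED, map_inn_congr ψ, hET]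
  refine ⟨⟨a₀, b₀, hab₀, ?_⟩, fun hp => ?_, ?_⟩
  · obtain ⟨E₁⟩ := nonempty_centralizer_conj (D := Cfsg.inndiagPOmegaPlus (k + 1) F) α x
    obtain ⟨E₂⟩ := even_centralizer (coe_qMinus k _ _) hhM hEM hEK he hQK hσQ (coe_qMinus k a₀ b₀) hhK
    exact ⟨E₁.trans (((Subgroup.equivMapOfInjective _ E.toMonoidHom E.injective).trans
      (MulEquiv.subgroupCongr (by rw [map_inf_centralizer, hED, hET]))).trans
      (E₂.trans (MulEquiv.subgroupCongr (inndiag_minus_eq (by omega) hab₀).symm)))⟩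
  · rw [hcount]
    refine even_split_one (coe_qMinus k _ _) hhM hEM hEK he hQK hσQ (Or.inr ?_)
      fun c hc => by rw [similMults_qMinus k hab₀]; exact hc
    exact (two_eq_zero_iff hf hF).2 hp
  rw [hcount]
  suffices hs : (2 : F) ≠ 0 →
      ((Odd (k + 1) ∧ Fintype.card F₀ % 4 = 1) →
        Cfsg.splitClassCount (properImage (coe_qMinus k (e a₀) (e b₀)) hEM)
          (Cfsg.Inn (Cfsg.POmega F (Cfsg.quadFormMinus k F (e a₀) (e b₀))))
          (indHom _ (coe_qMinus k _ _) (stdSigma _ hσQ)) = 4) ∧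
      (¬ (Odd (k + 1) ∧ Fintype.card F₀ % 4 = 1) →
        Cfsg.splitClassCount (properImage (coe_qMinus k (e a₀) (e b₀)) hEM)
          (Cfsg.Inn (Cfsg.POmega F (Cfsg.quadFormMinus k F (e a₀) (e b₀))))
          (indHom _ (coe_qMinus k _ _) (stdSigma _ hσQ)) = 2) by
    rw [hF₀] at hs
    exact ⟨fun h => (hs fun h2 => h.1 ((two_eq_zero_iff hf hF).1 h2)).1 h.2,
      fun h => (hs fun h2 => h.1 ((two_eq_zero_iff hf hF).1 h2)).2 h.2⟩
  intro h2
  have h20 : (2 : F₀) ≠ 0 := two_ne_zero_of_embedding (e := e) h2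
  have hsq : ∀ a : F₀, IsSquare (e a) := isSquare_map_of_two hcard
  obtain ⟨c, hc⟩ := H5.exists_not_isSquare (F := F₀) h20
  have hc0 : c ≠ 0 := fun h => hc (h ▸ IsSquare.zero)
  obtain ⟨t, ht⟩ := hsq c
  have ht0 : t ≠ 0 := fun h => (map_ne_zero e).2 hc0 (by rw [ht, h, mul_zero])
  obtain ⟨μ, hμ⟩ := exists_norm_two he hσ hc0
  have hμ0 : μ ≠ 0 := fun h => (map_ne_zero e).2 hc0 (by rw [← hμ, h, zero_mul])
  set τ : Fin (k + 1) → Fˣ := Function.update (fun _ => Units.mk0 t ht0) (Fin.last k)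
    (Units.mk0 (μ / t) (div_ne_zero hμ0 ht0)) with hτ
  obtain ⟨hdk, hsk⟩ := diagOrth_invariants (F := F) (m := k + 1) (by omega) τ
  let δ' : linSim (qPlus (k + 1) F) := toLinSim
    ((diagOrth F (k + 1) τ).1.trans (LinearEquiv.smulOfUnit (Units.mk0 t ht0))) ((map_ne_zero e).2 hc0)
    (fun v => by
      change qPlus (k + 1) F (t • (diagOrth F (k + 1) τ).1 v) = _
      rw [qf_smul, orth_map, sq, ht])
  have hδ'v : ∀ v, (δ'.1 : Equiv.Perm _) v = t • (diagOrth F (k + 1) τ).1 v := fun v => rfl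
  have hfix : σ (e c) = e c := (he _).2 ⟨c, rfl⟩
  have hcoef : ∀ v i, (δ'.1 : Equiv.Perm (Fin (k + 1) ⊕ Fin (k + 1) → F)) v i =
      (Sum.elim (fun j => if j = Fin.last k then μ else e c)
        (fun j => if j = Fin.last k then σ μ else 1) i) * v i := by
    intro v i
    rw [hδ'v, Pi.smul_apply, smul_eq_mul, diagOrth_apply, ← mul_assoc]
    congr 1
    rcases i with i | i <;> by_cases hi : i = Fin.last k
    · subst hi; simp [hτ]; field_simp
    · simp [hτ, hi, ht]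
    · subst hi; simp [hτ]; field_simp
      linear_combination -ht - hμ
    · simp [hτ, hi, ht0]
  have hcomm : lastSwap F k * plusPhi k σ * δ'.1 = δ'.1 * (lastSwap F k * plusPhi k σ) := by
    refine Subtype.ext (Equiv.ext fun v => funext fun i => ?_)
    simp only [Subgroup.coe_mul, Equiv.Perm.mul_apply, plusPhi_apply]
    rw [hcoef]
    simp only [lastSwap, orthToSim_apply, refl_swapVec, coordSigma_apply, hcoef, map_mul]
    congr 1
    rcases i with i | i <;> by_cases hi : i = Fin.last k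
    · subst hi
      rw [Equiv.swap_apply_left]
      simp [show σ (σ μ) = μ by rw [← RingAut.mul_apply, ← sq, ← hσ, pow_orderOf_eq_one]; rfl]
    · rw [Equiv.swap_apply_of_ne_of_ne (by simp [hi]) (by simp)]
      simp [hi, hfix]
    · subst hi
      rw [Equiv.swap_apply_right]
      simp
    · rw [Equiv.swap_apply_of_ne_of_ne (by simp) (by simp [hi])]
      simp [hi]
  -- transport to the minus form
  set L : linSim (qMinus k F (e a₀) (e b₀)) := ⟨simTransport j hj δ'.1, simTransport_mem_linSim j hj δ'.2⟩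
  obtain ⟨kK, hkK⟩ := exists_rational_of_commute e he (linSimEquiv L) (fun w => by
    have h0 := congrArg (simTransport j hj) hcomm
    rw [map_mul, map_mul (simTransport j hj) δ'.1, hTr] at h0
    have h1 := congrArg (fun g => (g : semiSimGroup _).1 w) h0
    exact h1.symm)
  have hQL : ∀ v, qMinus k F (e a₀) (e b₀) (linSimEquiv L v) = e c * qMinus k F (e a₀) (e b₀) v := fun w => by
    obtain ⟨v, rfl⟩ := j.surjective w
    rw [linSimEquiv_apply, simTransport_apply, hj, hj, hδ'v, qf_smul, orth_map, sq, ht]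
  let δK : linSim (qMinus k F₀ a₀ b₀) := toLinSim kK hc0 (fun z => e.injective (by
    rw [map_mul, ← hQK, ← hQK, ← hkK, hQL]))
  have hbase : baseSim hQK δK = L := linSim_ext (e := e) fun z => by
    rw [baseSim_apply, toLinSim_apply, ← hkK]; rfl
  have hL : ∀ v, (L.1 : Equiv.Perm _) v = t • (orthIso j hj (diagOrth F (k + 1) τ)).1 v := fun w => by
    obtain ⟨v, rfl⟩ := j.surjective w
    rw [simTransport_apply, orthIso_apply, hδ'v, map_smul]
  obtain ⟨hdL, hsL⟩ := dick_spin_orthIso j hj hEP hEM (diagOrth F (k + 1) τ)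
  have hδKp : IsProper (k + 1) δK := by
    rw [← isProper_baseSim hEM hEK hQK, hbase, isProper_smul_iff hEM L _ hL, hdL, hdk]
  have hδKm : simMult δK.1 = c := simMult_eq hEK.exists_ne fun z => by
    rw [simSigma_linear δK.2]
    exact e.injective (by rw [toLinSim_apply, ← hQK, ← hkK, hQL, hQK, ← map_mul]; rfl)
  have hμns : sqc μ = -1 := H5.sqc_eq_neg_one_iff.2 fun ⟨z, hz⟩ => by
    have h1 : σ (z * σ z) = z * σ z := by
      rw [map_mul, show σ (σ z) = z by rw [← RingAut.mul_apply, ← sq, ← hσ, pow_orderOf_eq_one]; rfl,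
        mul_comm]
    obtain ⟨u, hu⟩ := (he _).1 h1
    exact hc ⟨u, e.injective (by rw [map_mul, hu, ← hμ, hz, map_mul]; ring)⟩
  have hspin : spin (qMinus k F (e a₀) (e b₀)) (orthIso j hj (diagOrth F (k + 1) τ)) =
      -(sqc t ^ (k + 1)) := by
    rw [hsL, hsk]
    have hprod : ((∏ i, τ i : Fˣ) : F) = t ^ k * (μ / t) := by
      rw [Fin.prod_univ_castSucc]
      simp [hτ, Fin.castSucc_lt_last _ |>.ne, Units.coe_prod]
    rw [hprod, H5.sqc_mul (pow_ne_zero _ ht0) (div_ne_zero hμ0 ht0), sqc_pow ht0, div_eq_mul_inv,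
      H5.sqc_mul hμ0 (inv_ne_zero ht0), H5.sqc_inv ht0, hμns, pow_succ]
    rw [neg_one_mul, mul_neg]
  obtain ⟨h4, h2'⟩ := even_split_two (coe_qMinus k _ _) hhM hEM hEK he hQK hσQ h2 hsq
    (fun d hd => ⟨hd, (j.symm.trans ((diagMap F (k + 1) (fun _ => Units.mk0 d hd) 1).trans j)),
      fun v => by
        rw [LinearEquiv.trans_apply, LinearEquiv.trans_apply, hj,
          qPlus_diagMap (c := d) _ _ (fun i => by simp), ← hj, j.apply_symm_apply]⟩)
    δK hδKp (by rw [hδKm]; exact hc) (orthIso j hj (diagOrth F (k + 1) τ))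
    (fun v => by rw [hbase]; exact hL v)
  rw [hspin] at h4 h2'
  have hiff := isSquare_sqrt_iff hcard h2 hc ht.symm
  have hoddK : Fintype.card F₀ % 2 = 1 := FiniteField.odd_card_of_char_ne_two fun h => h20 (by
    haveI := ringChar.of_eq h; exact CharTwo.two_eq_zero)
  refine ⟨fun ⟨ho, hq⟩ => h4 ?_, fun hn => h2' ?_⟩
  · rw [H5.sqc_eq_neg_one_iff.2 (fun hs => by have := hiff.1 hs; omega), ho.neg_one_pow, neg_neg]
  · by_cases hs : IsSquare t
    · rw [H5.sqc_eq_one_iff.2 hs, one_pow]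
    · have hq : Fintype.card F₀ % 4 = 1 := by
        have : Fintype.card F₀ % 4 ≠ 3 := fun h => hs (hiff.2 h)
        omega
      rw [(Nat.not_odd_iff_even.1 fun ho => hn ⟨ho, hq⟩ : Even (k + 1)).exists_two_nsmul.choose_spec,
        smul_eq_mul, pow_mul, Int.units_sq, one_pow]

end Cfsg.Agent.H4
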